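import Cfsg.Agent.H56.Te6two.Main
import Cfsg.Agent.S1066
import Cfsg.Agent.S1102

/-!
# Elements of order `11` and `33` of `²E₆(2)` (helper56)

* `exists_33` : there are elements of order `33`;
* `not_real_11` : no element of order `11` is conjugate to its inverse.
-/

set_option autoImplicit false
set_option linter.unusedSectionVars false

namespace Cfsg.Agent.H56.Te6two

open CoxeterSystem Cfsg Cfsg.Lie Cfsg.Lie.ChevalleyDatum
open Cfsg.Agent.ChevalleyStructure Cfsg.Agent.ChevalleyStructure.Elts Cfsg.Agent.ChevalleyStructure.CoxeterGeom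
  Cfsg.Agent.ChevalleyStructure.CoxeterGeomTypes Cfsg.Agent.ChevalleyStructure.NPerm
open Cfsg.Agent.Tits.Roots Cfsg.Agent.Tits.Core Cfsg.Agent.Nodes Cfsg.Agent.Nodes.Reps Cfsg.Agent.Nodes.BNOf
  Cfsg.Agent.Nodes.RGDChev Cfsg.Agent.Nodes.Bruhat
open Cfsg.Agent.KFacts.RgdField Cfsg.Agent.KFacts.RgdChevCoord Cfsg.Agent.BpExc.TorCent Cfsg.Agent.BpExc.TorChev
open Cfsg.Agent.GpExc.Field Cfsg.Agent.BpExc.Tow Cfsg.Agent.BpExc.TowChev Cfsg.Agent.BpExc.Fr
  Cfsg.Agent.BpExc.LangFr Cfsg.Agent.LangThm Cfsg.Agent.BpExc Cfsg.Agent.H129.TorusChar Cfsg.Agent.H129.TorusMain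
  Cfsg.Agent.H129.TorusUntw Cfsg.Agent.H129.WData Cfsg.Agent.H129.TorusTw Cfsg.Agent.H129
  Cfsg.Agent.BpExc.EmbSplit
open Cfsg.Agent.H129.TwE6Fr (tau embT flip6 Tfix tau_embT tau_split tau_normal tau_pow card_Tfix embT_injective
  tw_le Tfix_comm)
open Cfsg.Agent.H778.Exc

section Alg

variable {k : Type} [Field k] [IsAlgClosed k] [Fact (Nat.Prime 2)] [CharP k 2] {F : Type} [Field F] [Fintype F]
  (f : F →+* k)

theorem b11_ne : ((3 : ℕ) : ZMod 11) * b11 0 ≠ 0 := by decide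

theorem hq2 : IsPrimePow 2 := Nat.prime_two.isPrimePow

/-- the index of the torus of `²E₆(2)` in the fixed torus -/
theorem index_le (hF : Fintype.card F = 2 ^ 2) :
    Nat.card (↥(Tfix k 2 1) ⧸ (embT (k := k) f hq2 hF).range.subgroupOf (Tfix k 2 1)) ≤ 3 := by
  classical
  let ι : ↥(chevE6.diagonalSubgroup F ⊓ twistedE6 F 2) →*
      ↥((embT (k := k) f hq2 hF).range.subgroupOf (Tfix k 2 1)) :=
    MonoidHom.codRestrict (MonoidHom.codRestrict ((embT f hq2 hF).comp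
      (Subgroup.inclusion (inf_le_right : chevE6.diagonalSubgroup F ⊓ twistedE6 F 2 ≤ twistedE6 F 2)))
      (Tfix k 2 1) (fun x => ⟨emb_T RGDTwE6.hp f ⟨Subgroup.inclusion (tw_le hq2 hF) ⟨x.1, x.2.2⟩, x.2.1, rfl⟩,
        tau_embT f (by norm_num) hq2 hF _⟩)) _ (fun x => ⟨⟨x.1, x.2.2⟩, rfl⟩)
  have hι : Function.Injective ι := by
    intro x y h
    have h1 : embT f hq2 hF ⟨x.1, x.2.2⟩ = embT (k := k) f hq2 hF ⟨y.1, y.2.2⟩ :=
      congrArg Subtype.val (congrArg Subtype.val h)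
    have h2 := congrArg Subtype.val (embT_injective f hq2 hF h1)
    exact Subtype.ext h2
  have hA := card_Tfix (k := k) (p := 2) (e := 1) (q := 2) (by norm_num) hq2 hF f
  have hB : 3 * Nat.card ↥(chevE6.diagonalSubgroup F ⊓ twistedE6 F 2) = 9 := Cfsg.Agent.S1102.result hq2 hF
  norm_num at hA
  have hT : Finite ↥(Tfix k 2 1) := Nat.finite_of_card_ne_zero (by rw [hA]; norm_num)
  have h3 : Nat.card ↥(chevE6.diagonalSubgroup F ⊓ twistedE6 F 2) = 3 := by omega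
  have h4 : 3 ≤ Nat.card ↥((embT (k := k) f hq2 hF).range.subgroupOf (Tfix k 2 1)) := by
    rw [← h3]
    exact Nat.card_le_card_of_injective ι hι
  have h5 := ((embT (k := k) f hq2 hF).range.subgroupOf (Tfix k 2 1)).card_eq_card_quotient_mul_card_subgroup
  rw [hA] at h5
  by_contra hcon
  have h6 : 4 ≤ Nat.card (↥(Tfix k 2 1) ⧸ (embT (k := k) f hq2 hF).range.subgroupOf (Tfix k 2 1)) := by omega
  have h7 := Nat.mul_le_mul h6 h4
  omega

theorem exists_zeta (m : ℕ) (hm : ((m : ℕ) : k) ≠ 0) (h0 : 0 < m) : ∃ ζ : k, orderOf ζ = m := by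
  have : NeZero ((m : ℕ) : k) := ⟨hm⟩
  obtain ⟨ζ, hζ⟩ := HasEnoughRootsOfUnity.exists_primitiveRoot k m
  exact ⟨ζ, hζ.eq_orderOf.symm⟩

end Alg

variable {K : Type} [Field K] [Fintype K]

/-- **Elements of order `33`.** -/
theorem exists_33 (hK : Fintype.card K = 2 ^ 2) : ∃ y : ↥(twistedE6 K 2), orderOf y = 33 := by
  classical
  obtain ⟨p, e', hpF, hpc, hpk, -, hpe, hk⟩ := exists_closure hK
  have hp2 : p = 2 := by
    have h1 : 2 ∣ p ^ e' := by rw [← hpe]; norm_num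
    exact ((Nat.prime_dvd_prime_iff_eq Nat.prime_two hpF.out).1 (Nat.prime_two.dvd_of_dvd_pow h1)).symm
  subst hp2
  set k := AlgebraicClosure K
  let f : K →+* k := algebraMap K k
  have h11 : Fact (Nat.Prime 11) := ⟨by norm_num⟩
  have h3f : Fact (Nat.Prime 3) := ⟨by norm_num⟩
  let hN : NSys CoxeterMatrix.E₆ (TT chevE6 k) (nc RGDTwE6.hp k) :=
    nsys_of_locFin RGDTwE6.hp CoxeterMatrix.E₆.toCoxeterSystem hk 2
  obtain ⟨n, z, hn, hz⟩ := exists_nz hk hN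
  obtain ⟨ζ, hζ⟩ := exists_zeta (k := k) 11 (by rw [Ne, CharP.cast_eq_zero_iff k 2]; norm_num) (by norm_num)
  obtain ⟨ω, hω⟩ := exists_zeta (k := k) 3 (by rw [Ne, CharP.cast_eq_zero_iff k 2]; norm_num) (by norm_num)
  -- the element of order 11
  obtain ⟨t, ht, htb⟩ := exists_torus_elt RGDTwE6.hp hζ TorusChar.invC_E6 (by norm_num) b11
  have ht11 : t ^ 11 = 1 := pow_eq_one_of_fun RGDTwE6.hp hζ ht htb
  have htn : t ^ 3 ≠ 1 := by
    intro h
    have h1 := cX_pow RGDTwE6.hp ht 3 (sr 0)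
    rw [h, cX_one, htb, ← zz_natCast_mul hζ, eq_comm, zz_eq_one hζ, ev_sr] at h1
    exact b11_ne h1
  have hfix := lem_fix hk hn hz hζ b11_ok ht htb
  have hX := tau_pow f (p := 2) (e := 1) (q := 2) (by norm_num) hq2 hK hfix
  have hg3 : Nat.gcd 3 (2 + 1) = 3 := by norm_num
  rw [hg3, conj_pow] at hX
  -- the elements of order 3
  choose s hs hsb using fun i : Fin 4 => exists_torus_elt RGDTwE6.hp hω TorusChar.invC_E6 (by norm_num) (b3 i)
  have hs3 : ∀ i, s i ^ 3 = 1 := fun i => pow_eq_one_of_fun RGDTwE6.hp hω (hs i) (hsb i)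
  have hsfix : ∀ i, tau k 2 1 (z * s i * z⁻¹) = z * s i * z⁻¹ := fun i =>
    lem_fix hk hn hz hω (b3_ok i) (hs i) (hsb i)
  choose x a ha ha' hxa using fun i => tau_split f (p := 2) (e := 1) (q := 2) (by norm_num) hq2 hK (hsfix i)
  obtain ⟨i, j, hij, hq⟩ : ∃ i j : Fin 4, i ≠ j ∧
      (QuotientGroup.mk (⟨a i, ha i, ha' i⟩ : ↥(Tfix k 2 1)) : ↥(Tfix k 2 1) ⧸
        (embT (k := k) f hq2 hK).range.subgroupOf (Tfix k 2 1)) = QuotientGroup.mk ⟨a j, ha j, ha' j⟩ := by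
    by_contra hcon
    push Not at hcon
    have hinj : Function.Injective fun i : Fin 4 =>
        (QuotientGroup.mk (⟨a i, ha i, ha' i⟩ : ↥(Tfix k 2 1)) : ↥(Tfix k 2 1) ⧸
        (embT (k := k) f hq2 hK).range.subgroupOf (Tfix k 2 1)) := by
      intro i j h
      by_contra hne
      exact hcon i j hne h
    have hA := card_Tfix (k := k) (p := 2) (e := 1) (q := 2) (by norm_num) hq2 hK f
    norm_num at hA
    have hT : Finite ↥(Tfix k 2 1) := Nat.finite_of_card_ne_zero (by rw [hA]; norm_num)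
    have h1 := Nat.card_le_card_of_injective _ hinj
    have h2 := index_le (k := k) f hK
    rw [Nat.card_fin] at h1
    omega
  rw [QuotientGroup.eq] at hq
  have hq' : (a i)⁻¹ * a j ∈ (embT (k := k) f hq2 hK).range := hq
  set u : ↥(chevE6.group k) := (s i)⁻¹ * s j with hu
  have huT : u ∈ TT chevE6 k := mul_mem (inv_mem (hs i)) (hs j)
  have hu3 : u ^ 3 = 1 := by
    have hc : Commute (s i)⁻¹ (s j) := TT_comm RGDTwE6.hp _ (inv_mem (hs i)) _ (hs j)
    rw [hu, hc.mul_pow, inv_pow, hs3, hs3, inv_one, one_mul]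
  have hu1 : u ≠ 1 := by
    intro h
    apply hij
    apply b3_inj
    funext m
    have h1 : s i = s j := inv_mul_eq_one.1 h
    have h2 := hsb i (sr m)
    rw [h1, hsb, zz_inj hω, ev_sr, ev_sr] at h2
    exact h2.symm
  have hU : z * u * z⁻¹ ∈ (embT (k := k) f hq2 hK).range := by
    have e1 : z * u * z⁻¹ = (a i)⁻¹ * ((embT f hq2 hK (x i))⁻¹ * embT f hq2 hK (x j)) * ((a i)⁻¹)⁻¹ *
        ((a i)⁻¹ * a j) := by
      have h1 : z * u * z⁻¹ = (z * s i * z⁻¹)⁻¹ * (z * s j * z⁻¹) := by rw [hu]; group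
      rw [h1, hxa, hxa]
      group
    rw [e1]
    exact mul_mem (tau_normal f (p := 2) (e := 1) (q := 2) (by norm_num) hq2 hK (by rw [map_inv, ha'])
      (mul_mem (inv_mem ⟨x i, rfl⟩) ⟨x j, rfl⟩)) hq'
  -- the product
  have hcomm : Commute (z * t ^ 3 * z⁻¹) (z * u * z⁻¹) := by
    have h1 := TT_comm RGDTwE6.hp _ (pow_mem ht 3) _ huT
    show _ * _ = _ * _
    calc z * t ^ 3 * z⁻¹ * (z * u * z⁻¹) = z * (t ^ 3 * u) * z⁻¹ := by group
      _ = z * (u * t ^ 3) * z⁻¹ := by rw [h1]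
      _ = _ := by group
  have ho1 : orderOf (z * t ^ 3 * z⁻¹) = 11 := by
    refine orderOf_eq_prime ?_ ?_
    · rw [conj_pow, ← pow_mul, mul_comm 3 11, pow_mul, ht11, one_pow, mul_one, mul_inv_cancel]
    · intro h
      exact htn (by
        have h1 : t ^ 3 = z⁻¹ * (z * t ^ 3 * z⁻¹) * z := by group
        rw [h1, h, mul_one, inv_mul_cancel])
  have ho2 : orderOf (z * u * z⁻¹) = 3 := by
    refine orderOf_eq_prime ?_ ?_
    · rw [conj_pow, hu3, mul_one, mul_inv_cancel]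
    · intro h
      exact hu1 (by
        have h1 : u = z⁻¹ * (z * u * z⁻¹) * z := by group
        rw [h1, h, mul_one, inv_mul_cancel])
  have ho : orderOf (z * t ^ 3 * z⁻¹ * (z * u * z⁻¹)) = 33 := by
    rw [hcomm.orderOf_mul_eq_mul_orderOf_of_coprime (by rw [ho1, ho2]; norm_num), ho1, ho2]
  obtain ⟨y, hy⟩ := mul_mem hX hU
  refine ⟨y, ?_⟩
  rw [← orderOf_injective _ (embT_injective (k := k) f hq2 hK), hy, ho]

/-- two elements of prime order `r` in a group with `r ∣ |G|`, `r² ∤ |G|` -/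
theorem exists_conj_pow {G : Type*} [Group G] [Finite G] {r : ℕ} (hr : r.Prime) (hG : ¬ r ^ 2 ∣ Nat.card G)
    {x y : G} (hx : orderOf x = r) (hy : orderOf y = r) : ∃ (g : G) (c : ℕ), y = g * x ^ c * g⁻¹ := by
  have : Fact r.Prime := ⟨hr⟩
  have hS : ∀ {x : G}, orderOf x = r → ∃ P : Sylow r G, (P : Subgroup G) = Subgroup.zpowers x := by
    intro x hx
    have h1 : IsPGroup r ↥(Subgroup.zpowers x) := IsPGroup.of_card (n := 1) (by
      rw [Nat.card_zpowers, hx, pow_one])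
    obtain ⟨P, hP⟩ := h1.exists_le_sylow
    refine ⟨P, ?_⟩
    obtain ⟨m, hm⟩ := P.2.exists_card_eq
    have hm1 : m ≤ 1 := by
      by_contra hcon
      apply hG
      exact (pow_dvd_pow r (by omega : 2 ≤ m)).trans (hm ▸ (P : Subgroup G).card_subgroup_dvd_card)
    refine (Subgroup.eq_of_le_of_card_ge hP ?_).symm
    rw [Nat.card_zpowers, hx]
    calc Nat.card ↥(P : Subgroup G) = r ^ m := hm
      _ ≤ r ^ 1 := Nat.pow_le_pow_right hr.pos hm1
      _ = r := pow_one r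
  obtain ⟨P, hP⟩ := hS hx
  obtain ⟨Q, hQ⟩ := hS hy
  obtain ⟨g, hg⟩ := MulAction.exists_smul_eq G P Q
  have h1 : y ∈ (Q : Subgroup G) := by rw [hQ]; exact Subgroup.mem_zpowers y
  rw [← hg, Sylow.smul_def] at h1
  obtain ⟨y', hy', e⟩ := h1
  have hy'' : y' ∈ Subgroup.zpowers x := by rw [← hP]; exact hy'
  rw [← mem_powers_iff_mem_zpowers] at hy''
  obtain ⟨c, rfl⟩ := hy''
  exact ⟨g, c, e.symm⟩

/-- **The elements of order `11` are not real.** -/
theorem not_real_11 (hK : Fintype.card K = 2 ^ 2) (x g : ↥(twistedE6 K 2)) (hx : orderOf x = 11) :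
    g * x * g⁻¹ ≠ x⁻¹ := by
  classical
  intro hg
  obtain ⟨p, e', hpF, hpc, hpk, -, hpe, hk⟩ := exists_closure hK
  have hp2 : p = 2 := by
    have h1 : 2 ∣ p ^ e' := by rw [← hpe]; norm_num
    exact ((Nat.prime_dvd_prime_iff_eq Nat.prime_two hpF.out).1 (Nat.prime_two.dvd_of_dvd_pow h1)).symm
  subst hp2
  set k := AlgebraicClosure K
  let f : K →+* k := algebraMap K k
  have h11 : Fact (Nat.Prime 11) := ⟨by norm_num⟩
  let hN : NSys CoxeterMatrix.E₆ (TT chevE6 k) (nc RGDTwE6.hp k) :=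
    nsys_of_locFin RGDTwE6.hp CoxeterMatrix.E₆.toCoxeterSystem hk 2
  obtain ⟨n, z, hn, hz⟩ := exists_nz hk hN
  obtain ⟨ζ, hζ⟩ := exists_zeta (k := k) 11 (by rw [Ne, CharP.cast_eq_zero_iff k 2]; norm_num) (by norm_num)
  obtain ⟨t, ht, htb⟩ := exists_torus_elt RGDTwE6.hp hζ TorusChar.invC_E6 (by norm_num) b11
  have ht11 : t ^ 11 = 1 := pow_eq_one_of_fun RGDTwE6.hp hζ ht htb
  have htn : t ^ 3 ≠ 1 := by
    intro h
    have h1 := cX_pow RGDTwE6.hp ht 3 (sr 0)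
    rw [h, cX_one, htb, ← zz_natCast_mul hζ, eq_comm, zz_eq_one hζ, ev_sr] at h1
    exact b11_ne h1
  have hfix := lem_fix hk hn hz hζ b11_ok ht htb
  have hX := tau_pow f (p := 2) (e := 1) (q := 2) (by norm_num) hq2 hK hfix
  have hg3 : Nat.gcd 3 (2 + 1) = 3 := by norm_num
  rw [hg3, conj_pow] at hX
  obtain ⟨X, hX⟩ := hX
  have ho1 : orderOf (z * t ^ 3 * z⁻¹) = 11 := by
    refine orderOf_eq_prime ?_ ?_
    · rw [conj_pow, ← pow_mul, mul_comm 3 11, pow_mul, ht11, one_pow, mul_one, mul_inv_cancel]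
    · intro h
      exact htn (by
        have h1 : t ^ 3 = z⁻¹ * (z * t ^ 3 * z⁻¹) * z := by group
        rw [h1, h, mul_one, inv_mul_cancel])
  have hXo : orderOf X = 11 := by
    rw [← orderOf_injective _ (embT_injective (k := k) f hq2 hK), hX, ho1]
  have hcard : ¬ 11 ^ 2 ∣ Nat.card ↥(twistedE6 K 2) := by
    intro hd
    have h := Cfsg.Agent.S1066.result hq2 hK
    have h1 : 11 ^ 2 ∣ Nat.gcd 3 (2 + 1) * Nat.card ↥(twistedE6 K 2) := hd.mul_left _
    rw [h] at h1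
    revert h1
    norm_num
  obtain ⟨h, c, hc⟩ := exists_conj_pow (by norm_num : Nat.Prime 11) hcard hx hXo
  have hreal : (h * g * h⁻¹) * X * (h * g * h⁻¹)⁻¹ = X⁻¹ := by
    rw [hc]
    have h1 : g * x ^ c * g⁻¹ = (x ^ c)⁻¹ := by rw [← conj_pow, hg, inv_pow]
    calc h * g * h⁻¹ * (h * x ^ c * h⁻¹) * (h * g * h⁻¹)⁻¹ = h * (g * x ^ c * g⁻¹) * h⁻¹ := by group
      _ = h * (x ^ c)⁻¹ * h⁻¹ := by rw [h1]
      _ = _ := by group
  obtain ⟨y, hy⟩ : ∃ y, y = z⁻¹ * embT (k := k) f hq2 hK (h * g * h⁻¹) * z := ⟨_, rfl⟩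
  have h5 : y * t ^ 3 * y⁻¹ = (t ^ 3)⁻¹ := by
    have h6 := congrArg (embT (k := k) f hq2 hK) hreal
    rw [map_mul, map_mul, map_inv, map_inv, hX] at h6
    rw [hy]
    calc z⁻¹ * embT (k := k) f hq2 hK (h * g * h⁻¹) * z * t ^ 3 *
          (z⁻¹ * embT (k := k) f hq2 hK (h * g * h⁻¹) * z)⁻¹
        = z⁻¹ * (embT (k := k) f hq2 hK (h * g * h⁻¹) * (z * t ^ 3 * z⁻¹) *
          (embT (k := k) f hq2 hK (h * g * h⁻¹))⁻¹) * z := by group
      _ = z⁻¹ * (z * t ^ 3 * z⁻¹)⁻¹ * z := by rw [h6]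
      _ = _ := by group
  refine no_inv hk hζ (g := y) ht htb ?_
  have h7 : t = (t ^ 3) ^ 4 := by
    rw [← pow_mul, show 3 * 4 = 11 + 1 from rfl, pow_succ, ht11, one_mul]
  rw [h7, ← conj_pow, h5, inv_pow]

end Cfsg.Agent.H56.Te6two
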