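import Cfsg.Agent.H56.Te6two.Data
import Cfsg.Agent.H129.TwT
import Cfsg.Agent.H778.ExcNot

/-!
# Elements of order `11` and `33` of `²E₆(2)` (helper56)

Algebraic part: `lem_fix` : the elements of the torus of order `33` are fixed by the Frobenius map after conjugation;
`no_inv` : the elements of order `11` are not conjugate to their inverses.
-/

set_option autoImplicit false
set_option linter.unusedSectionVars false

namespace Cfsg.Agent.H56.Te6two

open CoxeterSystem Cfsg Cfsg.Lie Cfsg.Lie.ChevalleyDatum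
open Cfsg.Agent.ChevalleyStructure Cfsg.Agent.ChevalleyStructure.Elts Cfsg.Agent.ChevalleyStructure.CoxeterGeom
  Cfsg.Agent.ChevalleyStructure.CoxeterGeomTypes Cfsg.Agent.ChevalleyStructure.NPerm
open Cfsg.Agent.Tits.Roots Cfsg.Agent.Tits.Core Cfsg.Agent.Nodes Cfsg.Agent.Nodes.Reps Cfsg.Agent.Nodes.BNOf
  Cfsg.Agent.Nodes.RGDChev Cfsg.Agent.Nodes.Bruhat
open Cfsg.Agent.KFacts.RgdField Cfsg.Agent.KFacts.RgdChevCoord Cfsg.Agent.BpExc.TorCent Cfsg.Agent.BpExc.TorChev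
open Cfsg.Agent.GpExc.Field Cfsg.Agent.BpExc.Tow Cfsg.Agent.BpExc.TowChev Cfsg.Agent.BpExc.Fr
  Cfsg.Agent.BpExc.LangFr Cfsg.Agent.LangThm Cfsg.Agent.BpExc Cfsg.Agent.H129.TorusChar Cfsg.Agent.H129.TorusMain
  Cfsg.Agent.H129.TorusUntw Cfsg.Agent.H129.WData Cfsg.Agent.H129.TorusTw Cfsg.Agent.H129
open Cfsg.Agent.H129.TwE6Fr (tau embT flip6 Tfix tau_embT tau_split tau_normal tau_pow card_Tfix embT_injective)
open Cfsg.Agent.H778.Exc

/-- the Weyl group element -/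
abbrev w0 : CoxeterMatrix.E₆.Group := CoxeterMatrix.E₆.toCoxeterSystem.wordProd (chain.map Prod.fst)

theorem lin0 : Lin (theta RGDTwE6.hp CoxeterMatrix.E₆.toCoxeterSystem w0 flip6) Th :=
  TwT.lin_flip _ Am_eq chain_ok hT

theorem ev_hom {l m : ℕ} {θ : (Fin l → ℤ) →+ (Fin l → ℤ)} {b : Fin l → ZMod m} {c : ZMod m}
    (h : ∀ i, ev b (θ (sr i)) = c * b i) (x : Fin l → ℤ) : ev b (θ x) = c * ev b x := by
  have h1 : (evH b).comp θ = (AddMonoidHom.mulLeft c).comp (evH b) := by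
    refine hom_ext fun i => ?_
    show ev b (θ (sr i)) = c * ev b (sr i)
    rw [h, ev_sr]
  exact DFunLike.congr_fun h1 x

theorem ev_theta {m : ℕ} {b : Fin 6 → ZMod m} (hb : ∀ j, ∑ i, (Th j i : ZMod m) * b i = 2 * b j) (x : Fin 6 → ℤ) :
    ev b (theta RGDTwE6.hp CoxeterMatrix.E₆.toCoxeterSystem w0 flip6 x) = 2 * ev b x := by
  refine ev_hom (fun i => ?_) x
  rw [← hb, lin0 i]
  rfl

section Fix

variable {k : Type} [Field k] [IsAlgClosed k] [Fact (Nat.Prime 2)] [CharP k 2]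

/-- the torus elements of the functionals `b` with `b ∘ θ = 2 b` are fixed after conjugation -/
theorem lem_fix (hk : LocFin k) {hN : NSys CoxeterMatrix.E₆ (TT chevE6 k) (nc RGDTwE6.hp k)} {n z : ↥(chevE6.group k)}
    (hn : Rp CoxeterMatrix.E₆.toCoxeterSystem hN w0 n) (hz : tau k 2 1 z = z * n) {m : ℕ} [Fact m.Prime] {ζ : k}
    (hζ : orderOf ζ = m) {b : Fin 6 → ZMod m} (hb : ∀ j, ∑ i, (Th j i : ZMod m) * b i = 2 * b j)
    {t : ↥(chevE6.group k)} (ht : t ∈ TT chevE6 k) (htb : ∀ x, cX RGDTwE6.hp t x = zz ζ (ev b x)) :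
    tau k 2 1 (z * t * z⁻¹) = z * t * z⁻¹ := by
  have hτ : n * tau k 2 1 t * n⁻¹ = t := by
    rw [tau_iff RGDTwE6.hp CoxeterMatrix.E₆.toCoxeterSystem hk TwE6Fr.isFrob_tau
      (TwE6Fr.fr_tau CoxeterMatrix.E₆.toCoxeterSystem) hn ht]
    intro x
    have h := zz_natCast_mul hζ 2 (ev b x)
    rw [Nat.cast_ofNat] at h
    rw [htb, htb, ev_theta hb, h, pow_one]
  rw [map_mul, map_mul, map_inv, hz]
  calc z * n * tau k 2 1 t * (z * n)⁻¹ = z * (n * tau k 2 1 t * n⁻¹) * z⁻¹ := by group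
    _ = z * t * z⁻¹ := by rw [hτ]

theorem exists_nz (hk : LocFin k) (hN : NSys CoxeterMatrix.E₆ (TT chevE6 k) (nc RGDTwE6.hp k)) :
    ∃ n z : ↥(chevE6.group k), Rp CoxeterMatrix.E₆.toCoxeterSystem hN w0 n ∧ tau k 2 1 z = z * n := by
  have := TwT.finite_W6
  obtain ⟨n, hn⟩ := exists_rp CoxeterMatrix.E₆.toCoxeterSystem hN w0
  obtain ⟨z, hz⟩ := lang_all RGDTwE6.hp CoxeterMatrix.E₆.toCoxeterSystem Nat.one_pos TwE6Fr.isFrob_tau
    (TwE6Fr.fr_tau (k := k) (p := 2) (e := 1) CoxeterMatrix.E₆.toCoxeterSystem) 1 n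
  rw [map_one, one_mul] at hz
  exact ⟨n, z, hn, by rw [hz]; group⟩

/-- the orbit is preserved by the Weyl group -/
theorem rep_om (w : CoxeterMatrix.E₆.Group) (j : Fin 27) :
    ∃ j', rep CoxeterMatrix.E₆.toCoxeterSystem RGDTwE6.hp.isCartan w (om j) = om j' := by
  obtain ⟨L, rfl⟩ := CoxeterMatrix.E₆.toCoxeterSystem.wordProd_surjective w
  induction L with
  | nil => exact ⟨j, by rw [wordProd_nil, map_one, Module.End.one_apply]⟩
  | cons i L ih =>
    obtain ⟨j', hj'⟩ := ih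
    refine ⟨pm i j', ?_⟩
    rw [wordProd_cons, rep_mul_apply, hj', rep_simple_eq]
    funext m
    show (om j' - pairing (cartanOf chevE6 6) i (om j') • sr i) m = om (pm i j') m
    rw [pm_ok, Pi.sub_apply, Pi.smul_apply, smul_eq_mul]
    have e : pairing (cartanOf chevE6 6) i (om j') = ∑ n, Am i n * om j' n := by
      unfold pairing
      exact Finset.sum_congr rfl fun n _ => by rw [Am_eq]
    rw [e]
    by_cases hm : m = i
    · subst hm; rw [if_pos rfl, sr_self, mul_one]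
    · rw [if_neg hm, sr_ne hm, mul_zero]

/-- **The elements of order `11` are not real.** -/
theorem no_inv (hk : LocFin k) {ζ : k} (hζ : orderOf ζ = 11) {t g : ↥(chevE6.group k)} (ht : t ∈ TT chevE6 k)
    (htb : ∀ x, cX RGDTwE6.hp t x = zz ζ (ev b11 x)) : g * t * g⁻¹ ≠ t⁻¹ := by
  intro hg
  have : Fact (Nat.Prime 11) := ⟨by norm_num⟩
  have hWf := TwT.finite_W6
  have H := tow RGDTwE6.hp CoxeterMatrix.E₆.toCoxeterSystem hk 2
  have C := coordsL RGDTwE6.hp CoxeterMatrix.E₆.toCoxeterSystem hk 2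
  rw [← TL_eq RGDTwE6.hp hk, ← XL_eq RGDTwE6.hp hk] at C
  have hs1 : t ∈ TL (Tj RGDTwE6.hp (k := k)) := by rw [TL_eq RGDTwE6.hp hk]; exact ht
  have ht1 : t⁻¹ ∈ TL (Tj RGDTwE6.hp (k := k)) := inv_mem hs1
  have hgG : g ∈ GG CoxeterMatrix.E₆.toCoxeterSystem RGDTwE6.hp.isCartan (TL (Tj RGDTwE6.hp (k := k)))
      (XL (Xj RGDTwE6.hp)) := by
    rw [GG_eq_top RGDTwE6.hp CoxeterMatrix.E₆.toCoxeterSystem hk]; exact Subgroup.mem_top _
  obtain ⟨m, -, w, n, hn, hns, -⟩ := BpExc.Fr.exists_form H C hs1 ht1 hgG (by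
    rw [← hg]; group)
  have h4 : n * t * n⁻¹ = t⁻¹ := by rw [hns]; group
  have hev : ∀ x, ev b11 (rep CoxeterMatrix.E₆.toCoxeterSystem RGDTwE6.hp.isCartan w x) = -1 * ev b11 x := by
    refine ev_hom (θ := (rep CoxeterMatrix.E₆.toCoxeterSystem RGDTwE6.hp.isCartan w).toAddMonoidHom) fun i => ?_
    have h3 := C.chi_rp H.nsys hn (isRoot_sr CoxeterMatrix.E₆.toCoxeterSystem RGDTwE6.hp.isCartan i) hs1
    rw [h4, ← cX_root RGDTwE6.hp CoxeterMatrix.E₆.toCoxeterSystem (inv_mem ht)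
      ((isRoot_sr CoxeterMatrix.E₆.toCoxeterSystem RGDTwE6.hp.isCartan i).act w),
      ← cX_root RGDTwE6.hp CoxeterMatrix.E₆.toCoxeterSystem ht
      (isRoot_sr CoxeterMatrix.E₆.toCoxeterSystem RGDTwE6.hp.isCartan i)] at h3
    have h5 := cX_mul RGDTwE6.hp (inv_mem ht) ht (rep CoxeterMatrix.E₆.toCoxeterSystem RGDTwE6.hp.isCartan w (sr i))
    rw [inv_mul_cancel, cX_one, h3, htb, htb, ← zz_add hζ, eq_comm, zz_eq_one hζ, ev_sr] at h5
    show ev b11 (rep CoxeterMatrix.E₆.toCoxeterSystem RGDTwE6.hp.isCartan w (sr i)) = _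
    rw [neg_one_mul]
    exact (neg_eq_of_add_eq_zero_right h5).symm
  choose f hf using rep_om w
  have hinj : Function.Injective f := by
    intro a b hab
    have h1 : rep CoxeterMatrix.E₆.toCoxeterSystem RGDTwE6.hp.isCartan w (om a) =
        rep CoxeterMatrix.E₆.toCoxeterSystem RGDTwE6.hp.isCartan w (om b) := by rw [hf, hf, hab]
    have h2 := congrArg (rep CoxeterMatrix.E₆.toCoxeterSystem RGDTwE6.hp.isCartan w⁻¹) h1
    rw [← Module.End.mul_apply, ← Module.End.mul_apply, ← map_mul, inv_mul_cancel, map_one, Module.End.one_apply,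
      Module.End.one_apply] at h2
    exact om_inj h2
  have hcard : (Finset.univ.filter fun j => vl j = 1).card ≤ (Finset.univ.filter fun j => vl j = -1).card := by
    refine Finset.card_le_card_of_injOn f (fun j hj => ?_) (hinj.injOn)
    rw [Finset.coe_filter, Set.mem_setOf_eq] at hj ⊢
    refine ⟨Finset.mem_univ _, ?_⟩
    have h1 := hev (om j)
    rw [hf] at h1
    have h2 : vl (f j) = -1 * vl j := h1
    rw [h2, hj.2, mul_one]
  rw [card_one, card_neg] at hcard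
  omega

end Fix

end Cfsg.Agent.H56.Te6two
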